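-- Team project OELM (S5990), package [EMBM] (helper84): an isometry of the hyperbolic part
-- extended by the identity on the anisotropic plane.
import Mathlib
import Cfsg.Agent.Lib.Helper58.OElm.Defs

set_option autoImplicit false
open scoped MatrixGroups
open Matrix

universe u

namespace Cfsg.Agent.Lib.Helper84.OElm

open Cfsg.Agent.Lib.Helper23.OHyp Cfsg.Agent.Lib.Helper44.OElp Cfsg.Agent.Lib.Helper64.OParM
  Cfsg.Agent.Lib.Helper58.OElm

theorem mem_fixSp_iff {F : Type u} [Field F] {ι : Type} [Fintype ι] [DecidableEq ι]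
    (x : Matrix ι ι F) (v : ι → F) : v ∈ fixSp x ↔ x *ᵥ v = v := by
  unfold fixSp
  rw [LinearMap.mem_ker, LinearMap.sub_apply, sub_eq_zero, Matrix.toLin'_apply]
  rfl

/-- the block embedding `A ↦ diag(A, 1)`. -/
def blk (F : Type u) [Field F] (k : ℕ) :
    Matrix (Fin k ⊕ Fin k) (Fin k ⊕ Fin k) F →* Matrix (MI k) (MI k) F where
  toFun A := Matrix.fromBlocks A 0 0 1
  map_one' := Matrix.fromBlocks_one
  map_mul' A B := by
    rw [Matrix.fromBlocks_multiply]
    simp

theorem blk_injective (F : Type u) [Field F] (k : ℕ) : Function.Injective (blk F k) := by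
  intro A B h
  have h' : Matrix.fromBlocks A 0 0 (1 : Matrix (Fin 2) (Fin 2) F) =
      Matrix.fromBlocks B 0 0 (1 : Matrix (Fin 2) (Fin 2) F) := h
  rw [Matrix.fromBlocks_inj] at h'
  exact h'.1

theorem blk_mulVec {F : Type u} [Field F] (k : ℕ) (A : Matrix (Fin k ⊕ Fin k) (Fin k ⊕ Fin k) F)
    (v : MI k → F) : blk F k A *ᵥ v = Sum.elim (A *ᵥ (v ∘ Sum.inl)) (v ∘ Sum.inr) := by
  show Matrix.fromBlocks A 0 0 1 *ᵥ v = _
  rw [Matrix.fromBlocks_mulVec]
  simp

theorem quadFormMinus_split {F : Type u} [Field F] (k : ℕ) (a b : F) (v : MI k → F) :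
    Cfsg.quadFormMinus k F a b v = Cfsg.quadFormPlus k F (v ∘ Sum.inl) +
      (v (Sum.inr 0) ^ 2 + a * v (Sum.inr 0) * v (Sum.inr 1) + b * v (Sum.inr 1) ^ 2) := rfl

theorem pkgEmbM : PkgEmbM.{u} := by
  intro F _ _ k a b y hy
  classical
  refine ⟨Units.map (blk F k) y, ?_, ?_, ?_⟩
  · intro u _
    show Cfsg.quadFormMinus k F a b (blk F k (y : Matrix (Fin k ⊕ Fin k) (Fin k ⊕ Fin k) F) *ᵥ u)
      = Cfsg.quadFormMinus k F a b u
    rw [blk_mulVec, quadFormMinus_split, quadFormMinus_split]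
    have h1 : Cfsg.quadFormPlus k F
        ((y : Matrix (Fin k ⊕ Fin k) (Fin k ⊕ Fin k) F) *ᵥ (u ∘ Sum.inl)) =
        Cfsg.quadFormPlus k F (u ∘ Sum.inl) := hy (u ∘ Sum.inl) (u ∘ Sum.inl)
    simp only [Sum.elim_comp_inl, Sum.elim_inr, Function.comp_apply]
    rw [h1]
  · exact orderOf_injective (Units.map (blk F k)) (Units.map_injective (blk_injective F k)) y
  · show Module.finrank F (fixSp (blk F k (y : Matrix (Fin k ⊕ Fin k) (Fin k ⊕ Fin k) F))) = _
    have hmem : ∀ v : MI k → F,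
        v ∈ fixSp (blk F k (y : Matrix (Fin k ⊕ Fin k) (Fin k ⊕ Fin k) F)) ↔
          (v ∘ Sum.inl) ∈ fixSp (y : Matrix (Fin k ⊕ Fin k) (Fin k ⊕ Fin k) F) := by
      intro v
      rw [mem_fixSp_iff, mem_fixSp_iff, blk_mulVec]
      constructor
      · intro h
        have h2 := congrArg (fun w : MI k → F => w ∘ Sum.inl) h
        simpa using h2
      · intro h
        rw [h]
        funext z
        rcases z with z | z <;> rfl
    let e : fixSp (blk F k (y : Matrix (Fin k ⊕ Fin k) (Fin k ⊕ Fin k) F)) ≃ₗ[F]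
        (fixSp (y : Matrix (Fin k ⊕ Fin k) (Fin k ⊕ Fin k) F) × (Fin 2 → F)) :=
      { toFun := fun v => (⟨(v : MI k → F) ∘ Sum.inl, (hmem v).mp v.2⟩, (v : MI k → F) ∘ Sum.inr)
        map_add' := fun v w => rfl
        map_smul' := fun c v => rfl
        invFun := fun p => ⟨Sum.elim (p.1 : Fin k ⊕ Fin k → F) p.2, (hmem _).mpr (by
          simpa using p.1.2)⟩
        left_inv := fun v => by
          apply Subtype.ext
          funext z
          rcases z with z | z <;> rfl
        right_inv := fun p => by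
          apply Prod.ext
          · apply Subtype.ext
            rfl
          · rfl }
    rw [e.finrank_eq, Module.finrank_prod, Module.finrank_fin_fun]

end Cfsg.Agent.Lib.Helper84.OElm
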