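-- Team project OELM (S5990), package [FIXM] (helper84): a good `j` gives an invariant elliptic
-- `m`-space, on an ambient space which is not of plus type.
import Mathlib
import Cfsg.Agent.Lib.Helper26.OElp.FixE
import Cfsg.Agent.Lib.Helper58.OElm.Defs

set_option autoImplicit false
open scoped MatrixGroups
open Matrix

universe u

namespace Cfsg.Agent.Lib.Helper84.OElm

open Cfsg.Agent.Lib.Helper23.OHyp Cfsg.Agent.Lib.Helper44.OElp Cfsg.Agent.Lib.Helper58.OElm
  Cfsg.Agent.Lib.Helper26.OElp Module

theorem pkgFixM_of (hSp : PkgSplitE.{u}) (hDv : PkgDivE.{u}) (hSb : PkgSubE.{u})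
    (hSm : PkgSumE.{u}) (hGe : PkgGeomE.{u}) : PkgFixM.{u} := by
  intro F _ _ ι _ _ Q r x hS hTop _hcard m j hm hcj hcjN hgood
  classical
  have hi0 : 0 < ordI (Fintype.card F) r := ordI_pos26 hS.prime hS.ndvd
  have hceven : Even (cc (Fintype.card F) r) := cc_even26 _ _
  obtain ⟨hNdC, hNdN, hPerp, hCompl, hInvN, -⟩ := hSp F ι Q r x hS
  obtain ⟨WN, hWNle, hWNinv, hWNnd, hWNdim⟩ :=
    hSb F ι Q r x hS (movSp x) le_rfl hInvN hNdN j hcjN
  obtain ⟨-, hWNplus⟩ := hDv F ι Q r x hS WN hWNle hWNinv hWNnd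
  rw [hWNdim] at hWNplus
  have hNdQ := hS.nondeg
  have hcjeven : Even (cc (Fintype.card F) r * j) := hceven.mul_right j
  have heeven : Even (m - cc (Fintype.card F) r * j) :=
    (Nat.even_sub hcj).2 ⟨fun _ => hcjeven, fun _ => hm⟩
  unfold GoodM at hgood
  rcases hgood with ⟨he0, heD⟩ | ⟨he0, hieven, hjodd⟩ | ⟨he0, heD, hcond⟩
  · -- 0 < e < D
    obtain ⟨W₀, hW₀le, hW₀nd, hW₀dim, hW₀plus⟩ :=
      hGe F ι Q hNdQ (fixSp x) hNdC (m - cc (Fintype.card F) r * j) (¬ Plus Q WN) heeven
        (by omega) (fun h => by omega)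
    have hperp : Perp Q W₀ WN := fun u hu v hv => hPerp u (hW₀le hu) v (hWNle hv)
    obtain ⟨hnd, hdim, htype⟩ := hSm F ι Q hNdQ W₀ WN hW₀nd hWNnd hperp
    refine ⟨W₀ ⊔ WN, ⟨?_, hnd, ?_⟩, inv_sup x _ _ (inv_of_le_fixSp x W₀ hW₀le) hWNinv⟩
    · rw [hdim, hW₀dim, hWNdim]
      omega
    · intro hplus
      have h1 := (htype (by rw [hW₀dim]; exact heeven) (by rw [hWNdim]; exact hcjeven)).1 hplus
      by_cases h : Plus Q WN
      · exact (hW₀plus.1 (h1.2 h)) h
      · exact h (h1.1 (hW₀plus.2 h))
  · -- e = 0, i even, j odd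
    have hci : cc (Fintype.card F) r = ordI (Fintype.card F) r := cc_eq_of_even26 hieven
    refine ⟨WN, ⟨?_, hWNnd, ?_⟩, hWNinv⟩
    · rw [hWNdim]
      omega
    · intro hplus
      rcases hWNplus.1 hplus with h | h
      · exact (Nat.not_even_iff_odd.2 h) hieven
      · rw [hci, Nat.mul_div_cancel_left j hi0] at h
        exact (Nat.not_even_iff_odd.2 hjodd) h
  · -- e = D > 0
    obtain ⟨hcN, hNplus⟩ := hDv F ι Q r x hS (movSp x) le_rfl hInvN hNdN
    obtain ⟨-, -, htop⟩ := hSm F ι Q hNdQ (fixSp x) (movSp x) hNdC hNdN hPerp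
    have hDeven : Even (finrank F (fixSp x)) := by
      rw [← heD]
      exact heeven
    have hNeven : Even (finrank F (movSp x)) := by
      obtain ⟨t, ht⟩ := hcN
      rw [ht]
      exact hceven.mul_right t
    have hCN : ¬ (Plus Q (fixSp x) ↔ Plus Q (movSp x)) := by
      have h := htop hDeven hNeven
      rw [hCompl.sup_eq_top] at h
      intro h'
      exact hTop (h.2 h')
    have hperp : Perp Q (fixSp x) WN := fun u hu v hv => hPerp u hu v (hWNle hv)
    obtain ⟨hnd, hdim, htype⟩ := hSm F ι Q hNdQ (fixSp x) WN hNdC hWNnd hperp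
    refine ⟨fixSp x ⊔ WN, ⟨?_, hnd, ?_⟩, inv_sup x _ _ (inv_of_le_fixSp x _ le_rfl) hWNinv⟩
    · rw [hdim, hWNdim, ← heD]
      omega
    · intro hplus
      have h1 := (htype hDeven (by rw [hWNdim]; exact hcjeven)).1 hplus
      rcases Nat.even_or_odd (ordI (Fintype.card F) r) with hieven | hiodd
      · have hci : cc (Fintype.card F) r = ordI (Fintype.card F) r := cc_eq_of_even26 hieven
        have hJj : Even (finrank F (movSp x) / cc (Fintype.card F) r + j) := by
          rcases hcond with h | h
          · exact absurd hieven (Nat.not_even_iff_odd.2 h)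
          · exact h
        have hWN' : Plus Q WN ↔ Even j := by
          rw [hWNplus, hci, Nat.mul_div_cancel_left j hi0]
          constructor
          · rintro (h | h)
            · exact absurd hieven (Nat.not_even_iff_odd.2 h)
            · exact h
          · exact Or.inr
        have hN' : Plus Q (movSp x) ↔
            Even (finrank F (movSp x) / cc (Fintype.card F) r) := by
          rw [hNplus, hci]
          constructor
          · rintro (h | h)
            · exact absurd hieven (Nat.not_even_iff_odd.2 h)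
            · exact h
          · exact Or.inr
        apply hCN
        rw [h1, hWN', hN']
        exact (Nat.even_add.mp hJj).symm
      · apply hCN
        rw [h1]
        constructor
        · intro _
          exact hNplus.2 (Or.inl hiodd)
        · intro _
          exact hWNplus.2 (Or.inl hiodd)

end Cfsg.Agent.Lib.Helper84.OElm
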