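-- Team project OELM (S5990), package [REDM] (helper84): reduction from non-scalar elements of
-- `Ω` with scalar `r`-th power to isometries of order `r` (port of Helper26.OElp.Red).
import Mathlib
import Cfsg.Agent.Lib.Helper58.OElm.Defs

set_option autoImplicit false
open scoped MatrixGroups
open Matrix

universe u

namespace Cfsg.Agent.Lib.Helper84.OElm

open Cfsg.Agent.Lib.Helper23.OHyp Cfsg.Agent.Lib.Helper44.OElp Cfsg.Agent.Lib.Helper64.OParM
  Cfsg.Agent.Lib.Helper58.OElm

/-- a scalar isometry of the minus form has square `1` -/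
theorem scal_sq_minus {F : Type u} [Field F] (k : ℕ) (a b : F)
    (hQ : Cfsg.Geo.IsNondegenerateQuadraticForm (Cfsg.quadFormMinus k F a b)) (z : F)
    (h : ∀ v : MI k → F, Cfsg.quadFormMinus k F a b (z • v) = Cfsg.quadFormMinus k F a b v) :
    z * z = 1 := by
  let v : MI k → F := fun i => if i = Sum.inr 0 then (1 : F) else 0
  have hv : Cfsg.quadFormMinus k F a b v = 1 := by simp [Cfsg.quadFormMinus, v]
  have h2 := h v
  rw [hQ.smul, hv, mul_one] at h2
  rw [← pow_two]
  exact h2

theorem pkgRedM_of (hO : PkgOddOmegaE.{u}) (hMQ : PkgMinusQE.{u}) : PkgRedM.{u} := by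
  intro F _ _ k m r a b hab hk hr hr2
  have hQ := (hMQ F k a b hab).1
  have hrodd : Odd r := hr.odd_of_ne_two hr2
  have : Fact r.Prime := ⟨hr⟩
  constructor
  · intro hAll x hx hord
    apply hAll x
    · apply hO F (MI k) _ hQ _ x hx (by rw [hord]; exact hrodd)
      intro _
      right
      simp only [Fintype.card_sum, Fintype.card_fin]
      omega
    · refine ⟨1, ?_⟩
      rw [← hord, pow_orderOf_eq_one, one_smul]
      rfl
    · intro z hz
      have hiso : ∀ v, Cfsg.quadFormMinus k F a b (z • v) = Cfsg.quadFormMinus k F a b v := by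
        intro v
        have h1 : Cfsg.quadFormMinus k F a b ((x : Matrix (MI k) (MI k) F) *ᵥ v)
            = Cfsg.quadFormMinus k F a b v := hx v v
        have h3 : (x : Matrix (MI k) (MI k) F) *ᵥ v = z • v := by
          rw [hz, Matrix.smul_mulVec, Matrix.one_mulVec]
        rw [← h3]
        exact h1
      have hzz := scal_sq_minus k a b hQ z hiso
      have hx2 : x ^ 2 = 1 := by
        apply Units.ext
        rw [Units.val_pow_eq_pow_val, hz, Units.val_one, pow_two, Matrix.smul_mul,
          Matrix.mul_smul, mul_one, smul_smul, hzz, one_smul]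
      have hdvd : r ∣ 2 := by
        rw [← hord]
        exact orderOf_dvd_of_pow_eq_one hx2
      have h1 := Nat.le_of_dvd (by norm_num) hdvd
      have h2 := hr.two_le
      omega
  · intro hIso x hx hsc hns
    obtain ⟨z, hz⟩ := hsc
    have hxi : x ∈ Cfsg.isometryGroup F (Cfsg.quadFormMinus k F a b) := by
      obtain ⟨y, _, rfl⟩ := Subgroup.mem_map.1 hx
      exact y.2
    have hzz : z * z = 1 := by
      apply scal_sq_minus k a b hQ z
      intro v
      have h1 : Cfsg.quadFormMinus k F a b
          (((x ^ r : GL (MI k) F) : Matrix (MI k) (MI k) F) *ᵥ v)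
          = Cfsg.quadFormMinus k F a b v := (Subgroup.pow_mem _ hxi r) v v
      have h3 : ((x ^ r : GL (MI k) F) : Matrix (MI k) (MI k) F) *ᵥ v
          = z • v := by
        rw [hz, Matrix.smul_mulVec, Matrix.one_mulVec]
      rw [← h3]
      exact h1
    have hone : (z • (1 : Matrix (MI k) (MI k) F)) * (z • 1) = 1 := by
      rw [Matrix.smul_mul, Matrix.mul_smul, mul_one, smul_smul, hzz, one_smul]
    let s : GL (MI k) F := ⟨z • 1, z • 1, hone, hone⟩
    have hs : s ∈ Cfsg.isometryGroup F (Cfsg.quadFormMinus k F a b) := by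
      intro u v
      show Cfsg.quadFormMinus k F a b ((z • (1 : Matrix (MI k) (MI k) F)) *ᵥ u)
        = Cfsg.quadFormMinus k F a b u
      rw [Matrix.smul_mulVec, Matrix.one_mulVec, hQ.smul, pow_two, hzz, one_mul]
    have hsx : ((s * x : GL (MI k) F) : Matrix (MI k) (MI k) F)
        = z • (x : Matrix (MI k) (MI k) F) := by
      rw [Units.val_mul]
      show (z • (1 : Matrix (MI k) (MI k) F)) * _ = _
      rw [Matrix.smul_mul, one_mul]
    have hpow : (s * x) ^ r = 1 := by
      apply Units.ext
      rw [Units.val_pow_eq_pow_val, hsx, smul_pow, ← Units.val_pow_eq_pow_val, hz, smul_smul,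
        Units.val_one]
      obtain ⟨k, hk⟩ := hrodd
      have : z ^ r * z = 1 := by
        rw [← pow_succ, hk, show 2 * k + 1 + 1 = 2 * (k + 1) by ring, pow_mul, pow_two, hzz,
          one_pow]
      rw [this, one_smul]
    have hne : s * x ≠ 1 := by
      intro h
      apply hns z
      have h1 : z • (x : Matrix (MI k) (MI k) F) = 1 := by
        rw [← hsx, h, Units.val_one]
      calc (x : Matrix (MI k) (MI k) F)
          = (z * z) • (x : Matrix (MI k) (MI k) F) := by rw [hzz, one_smul]
        _ = z • (z • (x : Matrix (MI k) (MI k) F)) := by rw [smul_smul]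
        _ = z • 1 := by rw [h1]
    have hord : orderOf (s * x) = r := orderOf_eq_prime hpow hne
    obtain ⟨W, hW, hinv⟩ := hIso (s * x) (Subgroup.mul_mem _ hs hxi) hord
    refine ⟨W, hW, ?_⟩
    rintro _ ⟨w, hw, rfl⟩
    have h1 : Matrix.toLin' ((s * x : GL (MI k) F) :
        Matrix (MI k) (MI k) F) w ∈ W := hinv ⟨w, hw, rfl⟩
    rw [hsx] at h1
    have h2 : Matrix.toLin' (x : Matrix (MI k) (MI k) F) w
        = z • (Matrix.toLin' (z • (x : Matrix (MI k) (MI k) F)) w) := by
      rw [Matrix.toLin'_apply, Matrix.toLin'_apply, Matrix.smul_mulVec, smul_smul, hzz, one_smul]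
    rw [h2]
    exact W.smul_mem z h1

end Cfsg.Agent.Lib.Helper84.OElm
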